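import Cfsg.Agent.Lib.Compute.ONL37.Data
import Cfsg.Agent.Lib.Compute.TCSplit
import Cfsg.Agent.Lib.Classical.Lin.Transvections

/-!
# The subgroup of index 122760 of the presented O'Nan group and `PSL(3,7)`
-/

set_option autoImplicit false

namespace Cfsg.Agent.Lib.Compute.ONL37

open Matrix
open Cfsg.Agent.Lib.Compute.PermCert Cfsg.Agent.Lib.Compute.BlockIso Cfsg.Agent.Lib.Compute.L37
open Cfsg.Agent.Lib.Compute.ToddCoxeterCore Cfsg.Agent.Lib.Compute.ToddCoxeterPresented
open Cfsg.Agent.Lib.Compute.TC Cfsg.Agent.Lib.Compute.TCSplit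

/-- The index two situation, with the image of the big group not given. -/
theorem index_two_of_perm' {A B Y : Type*} [Group A] [Group B] [Finite A] [Finite B] [Finite Y]
    (ψ : A →* Equiv.Perm Y) (ρ : B →* Equiv.Perm Y) (Z : Subgroup (Equiv.Perm Y))
    (hZψ : Z ≤ ψ.range) (hout : ∃ a, ψ a ∉ Z) (hA : Nat.card A = 2 * Nat.card Z)
    (hZρ : Z ≤ ρ.range) (hB : Nat.card B = Nat.card Z) :
    ∃ N : Subgroup A, N.Normal ∧ N.index = 2 ∧ Nonempty (N ≃* B) := by
  have hne : Nat.card ψ.range ≠ Nat.card Z := by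
    intro h
    have h1 : Z = ψ.range := Subgroup.eq_of_le_of_card_ge hZψ h.le
    obtain ⟨a, ha⟩ := hout
    exact ha (h1 ▸ ⟨a, rfl⟩)
  have hle : Nat.card ψ.range ≤ Nat.card A :=
    Nat.card_le_card_of_surjective ψ.rangeRestrict ψ.rangeRestrict_surjective
  obtain ⟨k, hk⟩ := Subgroup.card_dvd_of_le hZψ
  have hpos : 0 < Nat.card Z := Nat.card_pos
  have hk2 : k = 2 := by
    have h1 : k ≠ 1 := by
      rintro rfl
      exact hne (by rw [hk, mul_one])
    have h0 : k ≠ 0 := by
      rintro rfl
      have : 0 < Nat.card ψ.range := Nat.card_pos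
      omega
    have h3 : Nat.card Z * k ≤ Nat.card Z * 2 := by
      rw [← hk, mul_comm (Nat.card Z) 2, ← hA]
      exact hle
    have h4 := Nat.le_of_mul_le_mul_left h3 hpos
    omega
  subst hk2
  refine index_two_of_perm ψ ρ Z ψ.range hZψ rfl ?_ ?_ hZρ hB
  · rw [hk, hA, mul_comm]
  · rw [hk, mul_comm]

/-! ### The group on the flags -/

theorem pes_valid : ∀ e ∈ pes, validB 9 511 456 e = true := by decide +kernel

/-- The matrices. -/
def A1 : SL3 := ⟨mA1, by decide +kernel⟩
/-- The matrices. -/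
def A2 : SL3 := ⟨mA2, by decide +kernel⟩

theorem val_pe1 : validB 9 511 456 pe1 = true := pes_valid pe1 (by simp [pes])
theorem val_pe2 : validB 9 511 456 pe2 = true := pes_valid pe2 (by simp [pes])
theorem val_pe3 : validB 9 511 456 pe3 = true := pes_valid pe3 (by simp [pes])
theorem val_pe4 : validB 9 511 456 pe4 = true := pes_valid pe4 (by simp [pes])

set_option maxRecDepth 100000 in
theorem rho1 : psi A1 = permOf 9 511 456 pe1 * permOf 9 511 456 pe2 := by
  refine psi_eq' A1 mB1 (by decide +kernel) _ ?_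
  intro y
  rw [Equiv.Perm.mul_apply, permOf_apply val_pe1, permOf_apply val_pe2]
  have h : allB (fun y => Nat.beq (fl (lab (A1.1 *ᵥ rep (fp y))) (lab (mB1 *ᵥ rep (fq y))))
    (get 9 511 pe1.f (get 9 511 pe2.f y))) 456 = true := by decide +kernel
  exact Nat.eq_of_beq_eq_true ((allB_iff _ _).1 h y y.2)

set_option maxRecDepth 100000 in
theorem rho2 : psi A2 = permOf 9 511 456 pe3 * permOf 9 511 456 pe4 := by
  refine psi_eq' A2 mB2 (by decide +kernel) _ ?_
  intro y
  rw [Equiv.Perm.mul_apply, permOf_apply val_pe3, permOf_apply val_pe4]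
  have h : allB (fun y => Nat.beq (fl (lab (A2.1 *ᵥ rep (fp y))) (lab (mB2 *ᵥ rep (fq y))))
    (get 9 511 pe3.f (get 9 511 pe4.f y))) 456 = true := by decide +kernel
  exact Nat.eq_of_beq_eq_true ((allB_iff _ _).1 h y y.2)

/-- The value of a word. -/
def wM (u : List Bool) : SL3 := (u.map (fun b => if b then A2 else A1)).prod

set_option maxRecDepth 100000 in
theorem wd_ok : ∀ i j : Fin 3, i ≠ j →
    ∃ r ∈ [(1 : ZMod 7), 2, 4], (wM (wd i j)).1 = r • Matrix.transvection i j (1 : ZMod 7) := by
  decide +kernel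

set_option maxRecDepth 100000 in
theorem pow_ok : ∀ i j : Fin 3, i ≠ j → ∀ c : ZMod 7,
    (Matrix.transvection i j (1 : ZMod 7)) ^ c.val = Matrix.transvection i j c := by
  decide +kernel

theorem psi_range_le (A : SL3) : psi A ∈ genGroup 9 511 456 pes := by
  have hw : ∀ u : List Bool, psi (wM u) ∈ genGroup 9 511 456 pes := by
    have hA1 : psi A1 ∈ genGroup 9 511 456 pes := by
      rw [rho1]
      exact Subgroup.mul_mem _ (permOf_mem_genGroup (by simp [pes])) (permOf_mem_genGroup (by simp [pes]))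
    have hA2 : psi A2 ∈ genGroup 9 511 456 pes := by
      rw [rho2]
      exact Subgroup.mul_mem _ (permOf_mem_genGroup (by simp [pes])) (permOf_mem_genGroup (by simp [pes]))
    intro u
    induction u with
    | nil => simp [wM]
    | cons b u ih =>
      have h1 : wM (b :: u) = (if b then A2 else A1) * wM u := by simp [wM]
      rw [h1, map_mul]
      refine Subgroup.mul_mem _ ?_ ih
      cases b
      · simpa using hA1
      · simpa using hA2
  have h1 : (genGroup 9 511 456 pes).comap psi = ⊤ := by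
    rw [eq_top_iff, ← Cfsg.Agent.Lib.Classical.Lin.Transvections.closure_transvections (ι := Fin 3) (F := ZMod 7),
      Subgroup.closure_le]
    rintro _ ⟨i, j, hij, c, rfl⟩
    obtain ⟨r, hr, h2⟩ := wd_ok i j hij
    have hT : Matrix.SpecialLinearGroup.transvection hij c = Matrix.SpecialLinearGroup.transvection hij 1 ^ c.val := by
      apply Subtype.ext
      rw [Matrix.SpecialLinearGroup.coe_pow]
      exact (pow_ok i j hij c).symm
    have hz : wM (wd i j) * (Matrix.SpecialLinearGroup.transvection hij (1 : ZMod 7))⁻¹ ∈ Subgroup.center SL3 := by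
      rw [Matrix.SpecialLinearGroup.mem_center_iff]
      refine ⟨r, ?_, ?_⟩
      · exact (by decide +kernel : ∀ r ∈ [(1 : ZMod 7), 2, 4], r ^ Fintype.card (Fin 3) = 1) r hr
      · rw [Matrix.SpecialLinearGroup.coe_mul, h2]
        have h3 : Matrix.transvection i j (1 : ZMod 7) *
            (((Matrix.SpecialLinearGroup.transvection hij (1 : ZMod 7))⁻¹ : SL3) : Matrix (Fin 3) (Fin 3) (ZMod 7)) = 1 :=
          congrArg Subtype.val (mul_inv_cancel (Matrix.SpecialLinearGroup.transvection hij (1 : ZMod 7)))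
        rw [Matrix.smul_mul, h3]
        ext a b
        simp [Matrix.scalar_apply, Matrix.diagonal_apply, Matrix.one_apply]
    have h4 := psi_center _ hz
    rw [map_mul, map_inv, mul_inv_eq_one] at h4
    rw [SetLike.mem_coe, Subgroup.mem_comap, hT, map_pow, ← h4]
    exact Subgroup.pow_mem _ (hw _) _
  have : A ∈ (genGroup 9 511 456 pes).comap psi := by rw [h1]; trivial
  exact this

/-- The group acts faithfully on the flags. -/
theorem rho_inj : Function.Injective rho := by
  have h1 : IsSimpleGroup (Matrix.ProjectiveSpecialLinearGroup (Fin 3) (ZMod 7)) :=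
    Cfsg.Agent.Lib.Classical.Lin.Transvections.psl_isSimpleGroup (by simp)
  rw [← MonoidHom.ker_eq_bot_iff]
  refine (h1.eq_bot_or_eq_top_of_normal _ (MonoidHom.normal_ker rho)).resolve_right ?_
  intro h
  have h2 : rho (QuotientGroup.mk A1) = 1 := by
    have : (QuotientGroup.mk A1 : Matrix.ProjectiveSpecialLinearGroup (Fin 3) (ZMod 7)) ∈ rho.ker := by rw [h]; trivial
    exact this
  rw [rho_mk, rho1] at h2
  have h3 := congrArg (fun π : Equiv.Perm (Fin 456) => ((π 0 : Fin 456) : ℕ)) h2
  simp only [Equiv.Perm.mul_apply, Equiv.Perm.one_apply] at h3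
  rw [permOf_apply val_pe1, permOf_apply val_pe2] at h3
  revert h3
  decide +kernel

/-- The polarity is not in the image of the group: two flags with the same point go to flags with the same point. -/
theorem pe0_out (x : Matrix.ProjectiveSpecialLinearGroup (Fin 3) (ZMod 7)) : rho x ≠ permOf 9 511 456 pe0 := by
  obtain ⟨A, rfl⟩ := QuotientGroup.mk_surjective x
  rw [rho_mk]
  intro h
  have key : ∀ y : Fin 456, fp y = 0 → lab (A.1 *ᵥ rep 0) = fp (psi A y) := by
    intro y hy
    have h1 := psi_spec A (rp y) y (l_rp y)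
    have h2 := (l_labels h1).1
    simp only [rp, act_apply] at h2
    rw [hy] at h2
    exact h2
  have h1 := key ⟨0, by norm_num⟩ (by decide +kernel)
  have h2 := key ⟨1, by norm_num⟩ (by decide +kernel)
  rw [h, permOf_apply (pes_valid pe0 (by simp [pes]))] at h1 h2
  have h3 := h1.symm.trans h2
  revert h3
  decide +kernel

/-! ### The labels of the cosets -/

/-- The check of a coset. -/
noncomputable def chk (i : ℕ) : Bool :=
  Bool.rec (motive := fun _ => Bool) true
    (allB (fun j => Nat.beq (lb (ONT.cfg.walkEnd (ONT.hwL.getD j []) i)) (get 9 511 (pes.getD j ⟨0, 0⟩).f (lb i))) 6)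
    (Nat.blt (lb i) 456)

theorem wk0 : allFrom chk (nat_lit 20460) (nat_lit 0) = true := by decide +kernel
theorem wk1 : allFrom chk (nat_lit 20460) (nat_lit 20460) = true := by decide +kernel
theorem wk2 : allFrom chk (nat_lit 20460) (nat_lit 40920) = true := by decide +kernel
theorem wk3 : allFrom chk (nat_lit 20460) (nat_lit 61380) = true := by decide +kernel
theorem wk4 : allFrom chk (nat_lit 20460) (nat_lit 81840) = true := by decide +kernel
theorem wk5 : allFrom chk (nat_lit 20460) (nat_lit 102300) = true := by decide +kernel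

theorem wc1 : allFrom chk (nat_lit 40920) (nat_lit 0) = true := join wk0 wk1 rfl rfl
theorem wc2 : allFrom chk (nat_lit 61380) (nat_lit 0) = true := join wc1 wk2 rfl rfl
theorem wc3 : allFrom chk (nat_lit 81840) (nat_lit 0) = true := join wc2 wk3 rfl rfl
theorem wc4 : allFrom chk (nat_lit 102300) (nat_lit 0) = true := join wc3 wk4 rfl rfl
theorem wkAll : allFrom chk (nat_lit 122760) (nat_lit 0) = true := join wc4 wk5 rfl rfl

theorem rpOK : allB (fun y => Nat.blt (rpc y) 122760 && Nat.beq (lb (rpc y)) y) 456 = true := by decide +kernel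

/-- The cosets as a type. -/
abbrev Om : Type := Fin ONT.cfg.N

/-- The partial labelling of the cosets. -/
noncomputable def lF (i : Om) : Option (Fin 456) := if h : lb i < 456 then some ⟨lb i, h⟩ else none

theorem lF_eq {i : Om} {y : Fin 456} : lF i = some y ↔ lb i = y := by
  unfold lF
  split_ifs with h
  · constructor
    · intro h1
      rw [← Option.some.inj h1]
    · intro h1
      congr 1
      exact Fin.ext h1
  · constructor
    · intro h1; cases h1
    · intro h1
      exact absurd (by rw [h1]; exact y.2) h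

theorem cN : ONT.cfg.N = 122760 := by decide +kernel

theorem lF_surj (y : Fin 456) : ∃ i, lF i = some y := by
  have h := (allB_iff _ _).1 rpOK y y.2
  simp only [Bool.and_eq_true, Nat.blt_eq, Nat.beq_eq] at h
  exact ⟨⟨rpc y, by rw [cN]; exact h.1⟩, lF_eq.2 h.2⟩

/-- The presented group. -/
abbrev P : Type := PresentedGroup ONT.RR

/-- The action on the cosets. -/
noncomputable abbrev phi : P →* Equiv.Perm Om := phiG ONT.hR ONT.small ONT.big ONT.hgens

/-- The subgroup. -/
abbrev K : Subgroup P := HOf ONT.RR ONT.D.Hs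

theorem letters_of_index {j : ℕ} (hj : j < ONT.D.Hs.length) :
    toLetters ONT.D.lets ONT.D.Hs[j] = ONT.hwL.getD j [] := by
  have h := ONT.small.hhw
  have h1 : ONT.hwL = ONT.D.Hs.map (toLetters ONT.D.lets) := h
  rw [h1, List.getD_eq_getElem _ _ (by simpa using hj), List.getElem_map]

theorem act_index {j : ℕ} (hj : j < 6) (i : Om) (y : Fin 456) (hi : lF i = some y) :
    lF (phi (PresentedGroup.mk ONT.RR (ONT.D.Hs[j]'hj)) i) = some (permOf 9 511 456 (pes[j]'hj) y) := by
  have hi' : (i : ℕ) < 122760 := cN ▸ i.2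
  have h1 := allFrom_all wkAll rfl (i : ℕ) (Nat.zero_le _) hi'
  have hy := lF_eq.1 hi
  unfold chk at h1
  rw [hy] at h1
  have h2 : Nat.blt (y : ℕ) 456 = true := by simp [Nat.blt_eq, y.2]
  rw [h2] at h1
  have h3 := Nat.eq_of_beq_eq_true ((allB_iff _ _).1 h1 j hj)
  rw [lF_eq, permOf_apply ((pes_valid _ (List.getElem_mem hj))), phiG_mk,
    lift_val ONT.small (tok ONT.small ONT.big) ONT.hgens, letters_of_index hj, h3]
  rw [List.getD_eq_getElem _ _ hj]

/-- The image of the subgroup on the flags. -/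
theorem exists_psi [Finite P] : ∃ ψ : K →* Equiv.Perm (Fin 456), ψ.range = genGroup 9 511 456 pes := by
  have hK : K = Subgroup.closure (PresentedGroup.mk ONT.RR '' {h | h ∈ ONT.D.Hs}) := by
    show Subgroup.map _ _ = _
    rw [MonoidHom.map_closure]
  rw [hK]
  refine range_of_label phi lF lF_surj _ _ ?_ ?_
  · rintro _ ⟨r, hr, rfl⟩
    obtain ⟨j, hj, rfl⟩ := List.mem_iff_getElem.1 hr
    have hj' : j < 6 := hj
    refine ⟨permOf 9 511 456 (pes[j]'hj'), ⟨_, List.getElem_mem hj', rfl⟩, ?_⟩
    intro i y hi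
    exact act_index hj' i y hi
  · rintro _ ⟨e, he, rfl⟩
    obtain ⟨j, hj, rfl⟩ := List.mem_iff_getElem.1 he
    have hj' : j < 6 := hj
    refine ⟨_, ⟨_, List.getElem_mem hj', rfl⟩, ?_⟩
    intro i y hi
    exact act_index hj' i y hi

/-- The subgroup of index 122760 has a normal subgroup of index 2 isomorphic to `PSL(3,7)`. -/
theorem main (hP : Nat.card P = 460815505920) :
    ∃ N : Subgroup K, N.Normal ∧ N.index = 2 ∧ Nonempty (N ≃* Matrix.ProjectiveSpecialLinearGroup (Fin 3) (ZMod 7)) := by
  have : Finite P := Nat.finite_of_card_ne_zero (by rw [hP]; norm_num)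
  have : Finite (Matrix.ProjectiveSpecialLinearGroup (Fin 3) (ZMod 7)) :=
    Nat.finite_of_card_ne_zero (by rw [card_PSL]; norm_num)
  obtain ⟨ψ, hψ⟩ := exists_psi
  have hcr : Nat.card rho.range = 1876896 := by
    rw [← card_PSL]
    exact (Nat.card_congr (MonoidHom.ofInjective rho_inj).toEquiv).symm
  refine index_two_of_perm' ψ rho rho.range ?_ ?_ ?_ le_rfl ?_
  · rw [hψ]
    rintro _ ⟨x, rfl⟩
    obtain ⟨A, rfl⟩ := QuotientGroup.mk_surjective x
    rw [rho_mk]
    exact psi_range_le A
  · have h : permOf 9 511 456 pe0 ∈ ψ.range := by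
      rw [hψ]
      exact permOf_mem_genGroup (by simp [pes])
    obtain ⟨a, ha⟩ := h
    refine ⟨a, ?_⟩
    rw [ha]
    rintro ⟨x, hx⟩
    exact pe0_out x hx
  · have h1 := K.card_mul_index
    rw [ONT.index, hP] at h1
    have h2 : Nat.card K = 3753792 :=
      Nat.eq_of_mul_eq_mul_right (by norm_num : 0 < 122760) (h1.trans (by norm_num))
    rw [h2, hcr]
  · exact card_PSL.trans hcr.symm

end Cfsg.Agent.Lib.Compute.ONL37
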